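import Cfsg.Agent.BrauerInd.Induction
import Cfsg.Agent.Exceptional.Virtual
import Cfsg.Agent.Exceptional.Coherence
import Cfsg.Agent.OddChar.DadeBasic
import Cfsg.Agent.CharBasics.Central

/-!
# Hall subgroups controlling fusion and elementary subgroups have normal complements

For a class function `f` of `H` the function `g ↦ f (g^e)` (the `H`-part of `g` moved into `H`) is defined on `G`.
The weight with which its mean pulls back to `H` is a positive rational virtual character of mean one, hence `1`.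
-/

set_option autoImplicit false
set_option linter.unusedSectionVars false
set_option linter.style.haveILetI false

namespace CfsgLib.BrauerSuzukiHall

open Cfsg CfsgLib.CharBasics
open scoped ComplexConjugate

universe u

variable {G : Type u} [Group G] [Fintype G]

/-- The hypotheses of the complement theorem together with a chosen exponent. -/
structure Data (H : Subgroup G) (e : ℕ) : Prop where
  hall : Nat.Coprime (Nat.card H) H.index
  one_mod : e ≡ 1 [MOD Nat.card H]
  dvd : H.index ∣ e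
  fus : ∀ x ∈ H, ∀ y ∈ H, IsConj x y → ∃ h ∈ H, h * x * h⁻¹ = y
  elem : ∀ (E : Subgroup G) (p : ℕ), p.Prime → Cfsg.IsElementary p E → Nat.card E ∣ Nat.card H →
    ∃ g : G, E.map (MulAut.conj g).toMonoidHom ≤ H

variable {H : Subgroup G} {e : ℕ}

theorem pow_card_eq_one (D : Data H e) (g : G) : (g ^ e) ^ Nat.card H = 1 := by
  rw [← pow_mul, ← orderOf_dvd_iff_pow_eq_one]
  refine (orderOf_dvd_natCard g).trans ?_
  rw [← H.card_mul_index, mul_comm e]
  exact Nat.mul_dvd_mul_left _ D.dvd

theorem pow_of_mem (D : Data H e) {h : G} (hh : h ∈ H) : h ^ e = h :=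
  CfsgLib.OddChar.pow_eq_self_of_modEq D.one_mod (Subgroup.orderOf_dvd_natCard _ hh)

theorem exists_conj_mem (D : Data H e) (g : G) : ∃ h : H, IsConj (g ^ e) (h : G) := by
  set z := g ^ e
  obtain ⟨p, hp, hprime⟩ := Nat.exists_infinite_primes (orderOf z + 1)
  have hel : Cfsg.IsElementary p (Subgroup.zpowers z) := by
    refine ⟨⟨z, Subgroup.mem_zpowers z⟩, Subgroup.mem_center_iff.2 fun y => mul_comm' y _, ?_, 0, ?_⟩
    · rw [← Subgroup.orderOf_coe]
      exact ((Nat.Prime.coprime_iff_not_dvd hprime).2 fun h => absurd (Nat.le_of_dvd (orderOf_pos z) h) (by omega)).symm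
    · rw [pow_zero, Subgroup.index_eq_one, eq_top_iff]
      rintro ⟨y, i, rfl⟩ -
      exact ⟨i, Subtype.ext (by simp)⟩
  obtain ⟨x, hx⟩ := D.elem _ p hprime hel (by
    rw [Nat.card_zpowers]; exact orderOf_dvd_of_pow_eq_one (pow_card_eq_one D g))
  exact ⟨⟨x * z * x⁻¹, hx ⟨z, Subgroup.mem_zpowers z, rfl⟩⟩, isConj_iff.2 ⟨x, rfl⟩⟩

open scoped Classical in
/-- The pull back of a function on `H`. -/
noncomputable def star (H : Subgroup G) (e : ℕ) (f : H → ℂ) (g : G) : ℂ :=
  if h : ∃ x : H, IsConj (g ^ e) (x : G) then f h.choose else 0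

theorem star_eq (D : Data H e) {f : H → ℂ} (hf : IsClassFunction H f) {g : G} {h : H}
    (hg : IsConj (g ^ e) (h : G)) : star H e f g = f h := by
  have hex : ∃ x : H, IsConj (g ^ e) (x : G) := ⟨h, hg⟩
  rw [star, dif_pos hex]
  obtain ⟨x, hx, hx'⟩ := D.fus _ hex.choose.2 _ h.2 (hex.choose_spec.symm.trans hg)
  rw [← hf hex.choose ⟨x, hx⟩]
  exact congrArg f (Subtype.ext hx')

theorem star_coe (D : Data H e) {f : H → ℂ} (hf : IsClassFunction H f) (h : H) : star H e f (h : G) = f h :=
  star_eq D hf (by rw [pow_of_mem D h.2])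

theorem star_classFun (D : Data H e) {f : H → ℂ} (hf : IsClassFunction H f) :
    IsClassFunction G (star H e f) := by
  intro g x
  obtain ⟨h, hh⟩ := exists_conj_mem D g
  rw [star_eq D hf hh, star_eq D hf (h := h)]
  rw [conj_pow]
  exact (isConj_iff.2 ⟨x⁻¹, by simp [mul_assoc]⟩ : IsConj (x * g ^ e * x⁻¹) (g ^ e)).trans hh

/-- The `H`-part on an elementary subgroup is a homomorphism with elementary image. -/
theorem exists_part_hom (D : Data H e) {E : Subgroup G} {p : ℕ} (hp : p.Prime) (hE : Cfsg.IsElementary p E) :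
    ∃ ν : E →* E, (∀ z, ν z = z ^ e) := by
  obtain ⟨x, hxc, hcop, k, hk⟩ := hE
  haveI := Fact.mk hp
  obtain ⟨P⟩ := (inferInstance : Nonempty (Sylow p E))
  have hxp : Nat.Coprime (orderOf x) (p ^ k) := hcop.pow_right k
  have hcardE : orderOf x * p ^ k = Nat.card E := by
    rw [← Nat.card_zpowers, ← hk, Subgroup.card_mul_index]
  have hP : Nat.card (P : Subgroup E) = p ^ k := by
    rw [P.card_eq_multiplicity, ← hcardE, Nat.factorization_mul (orderOf_pos x).ne' (pow_ne_zero _ hp.ne_zero),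
      Finsupp.add_apply, hp.factorization_pow, Finsupp.single_eq_same,
      Nat.factorization_eq_zero_of_not_dvd fun hd => hp.one_lt.ne' (Nat.eq_one_of_dvd_coprimes hcop hd dvd_rfl),
      zero_add]
  have hcompl : Subgroup.IsComplement' (Subgroup.zpowers x) (P : Subgroup E) :=
    Subgroup.isComplement'_of_coprime (by rw [Nat.card_zpowers, hP, hcardE]) (by rwa [Nat.card_zpowers, hP])
  have hsplit : ∀ z : E, ∃ i : ℤ, ∃ u ∈ (P : Subgroup E), z = x ^ i * u := fun z => by
    obtain ⟨⟨⟨a, i, rfl⟩, u⟩, hz⟩ := hcompl.2 z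
    exact ⟨i, u, u.2, hz.symm⟩
  have hu : (∀ u ∈ (P : Subgroup E), u ^ e = u) ∨ ∀ u ∈ (P : Subgroup E), u ^ e = 1 := by
    have hord : ∀ u ∈ (P : Subgroup E), orderOf u ∣ p ^ k := fun u hu => hP ▸ Subgroup.orderOf_dvd_natCard _ hu
    have hG : ∀ u : E, orderOf u ∣ Nat.card H * H.index := fun u => by
      rw [H.card_mul_index, ← Subgroup.orderOf_coe]; exact orderOf_dvd_natCard _
    by_cases hpH : p ∣ Nat.card H
    · refine Or.inl fun u hu => CfsgLib.OddChar.pow_eq_self_of_modEq D.one_mod (Nat.Coprime.dvd_of_dvd_mul_right ?_ (hG u))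
      refine Nat.Coprime.coprime_dvd_left (hord u hu) (Nat.Coprime.pow_left _ ?_)
      exact (Nat.Prime.coprime_iff_not_dvd hp).2 fun h => hp.one_lt.ne'
        (Nat.eq_one_of_dvd_coprimes D.hall hpH h)
    · refine Or.inr fun u hu => orderOf_dvd_iff_pow_eq_one.1 ((Nat.Coprime.dvd_of_dvd_mul_left ?_ (hG u)).trans D.dvd)
      exact Nat.Coprime.coprime_dvd_left (hord u hu) (Nat.Coprime.pow_left _ ((Nat.Prime.coprime_iff_not_dvd hp).2 hpH))
  have hcomm : ∀ (i : ℤ) (u : E), Commute (x ^ i) u := fun i u =>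
    Commute.zpow_left (Subgroup.mem_center_iff.1 hxc u).symm i
  refine ⟨{ toFun := fun z => z ^ e, map_one' := one_pow e, map_mul' := fun z w => ?_ }, fun z => rfl⟩
  obtain ⟨i, u, hu', rfl⟩ := hsplit z
  obtain ⟨j, v, hv', rfl⟩ := hsplit w
  have h1 : x ^ i * u * (x ^ j * v) = x ^ (i + j) * (u * v) := by
    rw [zpow_add, mul_assoc, ← mul_assoc u, ← (hcomm j u).eq]; simp [mul_assoc]
  rw [h1, (hcomm _ _).mul_pow, (hcomm _ _).mul_pow, (hcomm _ _).mul_pow]
  have h2 : (x ^ (i + j)) ^ e = (x ^ i) ^ e * (x ^ j) ^ e := by rw [zpow_add, (hcomm i _).mul_pow]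
  rw [h2]
  rcases hu with h | h
  · rw [h u hu', h v hv', h _ (mul_mem hu' hv'), mul_assoc, mul_assoc, ← mul_assoc u,
      ← ((hcomm j u).pow_left e).eq]
    simp [mul_assoc]
  · rw [h u hu', h v hv', h _ (mul_mem hu' hv')]
    simp

theorem star_gen (D : Data H e) {θ : H → ℂ} (hθ : IsCharacter H θ) :
    IsGeneralizedCharacter G (star H e θ) := by
  refine BrauerInd.mem_genChar.1 (BrauerInd.mem_genChar_of_elementary
    (star_classFun D (CharBasics.isClassFunction hθ)) ?_)
  rintro E ⟨p, hp, hE⟩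
  obtain ⟨ν, hν⟩ := exists_part_hom D hp hE
  let φ : E →* G := E.subtype.comp ν
  have hφ : ∀ z : E, φ z = (z : G) ^ e := fun z => by simp [φ, hν]
  have hel : Cfsg.IsElementary p φ.range := by
    obtain ⟨x, hxc, hcop, k, hk⟩ := hE
    refine ⟨φ.rangeRestrict x, Subgroup.mem_center_iff.2 ?_, hcop.coprime_dvd_left (orderOf_map_dvd _ x), ?_⟩
    · rintro ⟨_, y, rfl⟩
      show φ.rangeRestrict y * φ.rangeRestrict x = φ.rangeRestrict x * φ.rangeRestrict y
      rw [← map_mul, ← map_mul, Subgroup.mem_center_iff.1 hxc y]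
    · have hdvd := Subgroup.index_map_dvd (Subgroup.zpowers x) φ.rangeRestrict_surjective
      rw [MonoidHom.map_zpowers, hk] at hdvd
      obtain ⟨j, -, hj⟩ := (Nat.dvd_prime_pow hp).1 hdvd
      exact ⟨j, hj⟩
  have hcard : Nat.card φ.range ∣ Nat.card H := by
    refine Nat.Coprime.dvd_of_dvd_mul_right ?_ (by rw [H.card_mul_index]; exact Subgroup.card_subgroup_dvd_card _)
    refine Nat.coprime_of_dvd fun q hq h1 h2 => ?_
    haveI := Fact.mk hq
    obtain ⟨y, hy⟩ := exists_prime_orderOf_dvd_card' q h1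
    obtain ⟨⟨z, hz⟩, rfl⟩ : ∃ w, w = y := ⟨y, rfl⟩
    obtain ⟨w, rfl⟩ := hz
    rw [← Subgroup.orderOf_coe] at hy
    have : orderOf (φ w) ∣ Nat.card H := orderOf_dvd_of_pow_eq_one (by rw [hφ]; exact pow_card_eq_one D _)
    rw [hy] at this
    exact hq.one_lt.ne' (Nat.eq_one_of_dvd_coprimes D.hall this h2)
  obtain ⟨g, hg⟩ := D.elem _ p hp hel hcard
  let ψ : E →* H := ((MulAut.conj g).toMonoidHom.comp φ).codRestrict H fun z => hg ⟨φ z, ⟨z, rfl⟩, rfl⟩
  have heq : (fun z : E => star H e θ z) = fun z => θ (ψ z) := funext fun z =>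
    star_eq D (CharBasics.isClassFunction hθ) (isConj_iff.2 ⟨g, by simp [ψ, hφ]⟩)
  rw [heq]
  exact BrauerInd.mem_genChar.2 (Exceptional.gen_of_character (isCharacter_comp hθ ψ))

open scoped Classical in
/-- The weight with which means pull back. -/
noncomputable def wt (H : Subgroup G) (e : ℕ) (h : H) : ℚ :=
  (Nat.card H : ℚ) / Nat.card G * ((Finset.univ.filter fun g : G => IsConj (g ^ e) (h : G)).card /
    ((Finset.univ : Finset G).filter fun y : G => y ∈ H ∧ IsConj (h : G) y).card)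

theorem wt_pos (D : Data H e) (h : H) : 0 < wt H e h := by
  classical
  unfold wt
  refine mul_pos (div_pos ?_ ?_) (div_pos ?_ ?_) <;> rw [Nat.cast_pos]
  · exact Nat.card_pos
  · exact Nat.card_pos
  · exact Finset.card_pos.2 ⟨h, Finset.mem_filter.2 ⟨Finset.mem_univ _, by rw [pow_of_mem D h.2]⟩⟩
  · exact Finset.card_pos.2 ⟨h, Finset.mem_filter.2 ⟨Finset.mem_univ _, h.2, IsConj.refl _⟩⟩

theorem wt_classFun (H : Subgroup G) (e : ℕ) : IsClassFunction H (fun h => (wt H e h : ℂ)) := by
  classical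
  intro h x
  have hc : IsConj (h : G) ((x * h * x⁻¹ : H) : G) := isConj_iff.2 ⟨x, by simp⟩
  simp only [wt]
  congr 4 <;> [skip; skip] <;> congr 1 <;> ext y <;> simp only [Finset.mem_filter, Finset.mem_univ, true_and]
  · exact ⟨fun h' => h'.trans hc.symm, fun h' => h'.trans hc⟩
  · exact and_congr_right fun _ => ⟨fun h' => hc.trans h', fun h' => hc.symm.trans h'⟩

theorem mean_star (D : Data H e) [Fintype H] {f : H → ℂ} (hf : IsClassFunction H f) :
    (Nat.card G : ℂ)⁻¹ * ∑ g : G, star H e f g = (Nat.card H : ℂ)⁻¹ * ∑ h : H, (wt H e h : ℂ) * f h := by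
  classical
  let T : G → Finset H := fun z => Finset.univ.filter fun h : H => IsConj z (h : G)
  have hT : ∀ h : H, (T (h : G)).card = ((Finset.univ : Finset G).filter fun y : G => y ∈ H ∧ IsConj (h : G) y).card := by
    intro h
    refine Finset.card_bij (fun y _ => (y : G)) (fun y hy => ?_) (fun a _ b _ hab => Subtype.ext hab) (fun y hy => ?_)
    · exact Finset.mem_filter.2 ⟨Finset.mem_univ _, y.2, (Finset.mem_filter.1 hy).2⟩
    · obtain ⟨-, hy1, hy2⟩ := Finset.mem_filter.1 hy
      exact ⟨⟨y, hy1⟩, Finset.mem_filter.2 ⟨Finset.mem_univ _, hy2⟩, rfl⟩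
  have h1 : ∀ g : G, star H e f g = ∑ h ∈ T (g ^ e), f h / ((T (h : G)).card : ℂ) := by
    intro g
    obtain ⟨x, hx⟩ := exists_conj_mem D g
    rw [Finset.sum_congr rfl (g := fun _ => f x / ((T (g ^ e)).card : ℂ)) fun h hh => ?_, Finset.sum_const, nsmul_eq_mul,
      star_eq D hf hx, mul_div_cancel₀]
    · exact Nat.cast_ne_zero.2 (Finset.card_ne_zero.2 ⟨x, Finset.mem_filter.2 ⟨Finset.mem_univ _, hx⟩⟩)
    · have hh' := (Finset.mem_filter.1 hh).2
      rw [← star_eq D hf hh', star_eq D hf hx]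
      congr 3
      ext y
      simp only [T, Finset.mem_filter, Finset.mem_univ, true_and]
      exact ⟨fun h' => hh'.trans h', fun h' => hh'.symm.trans h'⟩
  simp only [h1, T, Finset.sum_filter]
  rw [Finset.sum_comm, Finset.mul_sum, Finset.mul_sum]
  refine Finset.sum_congr rfl fun h _ => ?_
  rw [← Finset.sum_filter, Finset.sum_const, nsmul_eq_mul, hT h, wt]
  push_cast
  have hG : (Nat.card G : ℂ) ≠ 0 := Nat.cast_ne_zero.2 Nat.card_pos.ne'
  have hH : (Nat.card H : ℂ) ≠ 0 := Nat.cast_ne_zero.2 Nat.card_pos.ne'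
  field_simp

theorem classFun_conj {f : H → ℂ} (hf : IsClassFunction H f) : IsClassFunction H (fun h => conj (f h)) :=
  fun g x => by simp only [hf g x]

theorem wt_eq_one (D : Data H e) [Fintype H] (h : H) : wt H e h = 1 := by
  classical
  have hgen : IsGeneralizedCharacter H (fun h => (wt H e h : ℂ)) := by
    refine Exceptional.gen_of_inner_int (wt_classFun H e) fun ψ => ?_
    have hψ := CharBasics.isClassFunction (isCharacter_of_irr ψ.2)
    obtain ⟨m, hm⟩ := Exceptional.gen_inner_gen_int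
      (Exceptional.gen_of_character (isCharacter_of_irr (isIrrCharacter_one (G := G))))
      (star_gen D (isCharacter_of_irr ψ.2))
    refine ⟨m, ?_⟩
    rw [classInner_eq, ← mean_star D (classFun_conj hψ), ← hm, classInner_eq]
    congr 1
    refine Finset.sum_congr rfl fun g _ => ?_
    obtain ⟨x, hx⟩ := exists_conj_mem D g
    rw [star_eq D (classFun_conj hψ) hx, star_eq D hψ hx, one_mul]
  have hint : ∀ h : H, ∃ y : ℤ, (y : ℚ) = wt H e h := by
    intro h
    obtain ⟨a, b, ha, hb, hab⟩ := hgen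
    have h1 : IsIntegral ℤ (algebraMap ℚ ℂ (wt H e h)) := by
      rw [eq_ratCast, show ((wt H e h : ℚ) : ℂ) = a h - b h from congrFun hab h]
      exact (isIntegral_apply ha h).sub (isIntegral_apply hb h)
    exact IsIntegrallyClosed.isIntegral_iff.1 ((isIntegral_algebraMap_iff (algebraMap ℚ ℂ).injective).1 h1)
  have hge : ∀ h : H, 1 ≤ wt H e h := fun h => by
    obtain ⟨y, hy⟩ := hint h
    have := wt_pos D h
    rw [← hy] at this ⊢
    exact_mod_cast Int.add_one_le_iff.2 (by exact_mod_cast this : (0 : ℤ) < y)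
  have hsum : ∑ h : H, wt H e h = Fintype.card H := by
    have h2 := mean_star D (f := fun _ : H => (1 : ℂ)) (fun _ _ => rfl)
    rw [Finset.sum_congr rfl (g := fun _ => (1 : ℂ)) fun g _ => ?_] at h2
    · simp only [Finset.sum_const, Finset.card_univ, nsmul_eq_mul, mul_one, ← Nat.card_eq_fintype_card] at h2
      rw [inv_mul_cancel₀ (Nat.cast_ne_zero.2 Nat.card_pos.ne'), eq_inv_mul_iff_mul_eq₀
        (Nat.cast_ne_zero.2 Nat.card_pos.ne'), mul_one] at h2
      rw [← Nat.card_eq_fintype_card]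
      exact_mod_cast h2.symm
    · obtain ⟨x, hx⟩ := exists_conj_mem D g
      exact star_eq D (fun _ _ => rfl) hx
  have h0 : ∑ h : H, (wt H e h - 1) = 0 := by simp [Finset.sum_sub_distrib, hsum]
  have := (Finset.sum_eq_zero_iff_of_nonneg fun h _ => sub_nonneg.2 (hge h)).1 h0 h (Finset.mem_univ _)
  linarith

theorem star_norm (D : Data H e) [Fintype H] {θ : H → ℂ} (hθ : IsClassFunction H θ) :
    classInner (star H e θ) (star H e θ) = classInner θ θ := by
  have hc : IsClassFunction H fun h => θ h * conj (θ h) := fun g x => by simp only [hθ g x]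
  have := mean_star D hc
  simp only [wt_eq_one D, Rat.cast_one, one_mul] at this
  rw [classInner_eq, classInner_eq, ← this]
  congr 1
  refine Finset.sum_congr rfl fun g _ => ?_
  obtain ⟨x, hx⟩ := exists_conj_mem D g
  rw [star_eq D hc hx, star_eq D hθ hx]

theorem star_irr (D : Data H e) [Fintype H] {θ : H → ℂ} (hθ : IsIrrCharacter H θ) :
    IsIrrCharacter G (star H e θ) := by
  have hc := CharBasics.isClassFunction (isCharacter_of_irr hθ)
  have h1 : classInner (star H e θ) (star H e θ) = 1 := by rw [star_norm D hc, classInner_self hθ]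
  rcases Exceptional.norm_one_cases (star_gen D (isCharacter_of_irr hθ)) h1 with h | h
  · exact h
  · obtain ⟨d, hd, hd'⟩ := Exceptional.degree_eq (⟨_, h⟩ : IrrCharacter G)
    obtain ⟨d₁, hd₁, hd₁'⟩ := Exceptional.degree_eq (⟨_, hθ⟩ : IrrCharacter H)
    have h2 : star H e θ ((1 : H) : G) = θ 1 := star_coe D hc 1
    simp only [OneMemClass.coe_one] at h2
    simp only [Pi.neg_apply, h2] at hd'
    simp only at hd₁'
    rw [hd₁'] at hd'
    have : (-(d₁ : ℤ)) = (d : ℤ) := by exact_mod_cast hd'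
    omega

theorem normal_complement (D : Data H e) :
    ∃ K : Subgroup G, K.Normal ∧ K ⊔ H = ⊤ ∧ K ⊓ H = ⊥ := by
  classical
  haveI : Fintype H := Fintype.ofFinite _
  have := finite_irrCharacter (G := H)
  haveI := Fintype.ofFinite (Cfsg.IrrCharacter H)
  let Ψ : G → ℂ := ∑ θ : IrrCharacter H, charDegree (θ : H → ℂ) • star H e (θ : H → ℂ)
  have hΨ : IsCharacter G Ψ := isCharacter_sum _ _ fun θ _ => isCharacter_nsmul _ (isCharacter_of_irr (star_irr D θ.2))
  have hval : ∀ g : G, ∀ x : H, IsConj (g ^ e) (x : G) →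
      Ψ g = if IsConj x 1 then (Nat.card (Subgroup.centralizer ({x} : Set H)) : ℂ) else 0 := by
    intro g x hx
    rw [← sum_col]
    simp only [Ψ, Finset.sum_apply, Pi.smul_apply, nsmul_eq_mul, Pi.mul_apply, Pi.natCast_apply]
    refine Finset.sum_congr rfl fun θ _ => ?_
    rw [star_eq D (CharBasics.isClassFunction (isCharacter_of_irr θ.2)) hx, apply_one (isCharacter_of_irr θ.2),
      Complex.conj_natCast, mul_comm]
  have hone : Ψ 1 = (Nat.card H : ℂ) := by
    rw [hval 1 1 (by simp), if_pos (IsConj.refl 1)]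
    congr 1
    rw [show Subgroup.centralizer ({(1 : H)} : Set H) = ⊤ from by
      ext y; simp [Subgroup.mem_centralizer_iff], Subgroup.card_top]
  have hker : ∀ g : G, g ∈ charKer Ψ hΨ ↔ g ^ e = 1 := by
    intro g
    obtain ⟨x, hx⟩ := exists_conj_mem D g
    rw [mem_charKer, hval g x hx, hone]
    constructor
    · intro h
      by_cases hx1 : IsConj x 1
      · rw [isConj_one_left.1 hx1, OneMemClass.coe_one] at hx
        exact isConj_one_left.1 hx
      · rw [if_neg hx1] at h
        exact absurd h.symm (Nat.cast_ne_zero.2 Nat.card_pos.ne')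
    · intro h
      rw [h] at hx
      have hx1 : x = 1 := Subtype.ext (isConj_one_right.1 hx)
      subst hx1
      rw [if_pos (IsConj.refl 1)]
      congr 1
      rw [show Subgroup.centralizer ({(1 : H)} : Set H) = ⊤ from by
        ext y; simp [Subgroup.mem_centralizer_iff], Subgroup.card_top]
  have hbot : charKer Ψ hΨ ⊓ H = ⊥ := by
    rw [eq_bot_iff]
    rintro y ⟨hy, hyH⟩
    have := (hker y).1 hy
    rw [pow_of_mem D hyH] at this
    exact this
  refine ⟨charKer Ψ hΨ, charKer_normal hΨ, ?_, hbot⟩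
  haveI := charKer_normal hΨ
  set K := charKer Ψ hΨ with hKdef
  have hdvd : K.index ∣ Nat.card H := by
    refine Nat.Coprime.dvd_of_dvd_mul_right ?_ (by rw [H.card_mul_index]; exact K.index_dvd_card)
    refine Nat.coprime_of_dvd fun q hq h1 h2 => ?_
    haveI := Fact.mk hq
    obtain ⟨y, hy⟩ := exists_prime_orderOf_dvd_card' (G := G ⧸ K) q h1
    obtain ⟨z, rfl⟩ := QuotientGroup.mk_surjective y
    have hz : ((z : G ⧸ K)) ^ Nat.card H = 1 := by
      rw [← QuotientGroup.mk_pow, QuotientGroup.eq_one_iff, hker, ← pow_mul, mul_comm, pow_mul, pow_card_eq_one D]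
    have := orderOf_dvd_of_pow_eq_one hz
    rw [hy] at this
    exact hq.one_lt.ne' (Nat.eq_one_of_dvd_coprimes D.hall this h2)
  have hc : Subgroup.IsComplement' (H.subgroupOf (K ⊔ H)) (K.subgroupOf (K ⊔ H)) := by
    haveI : (K.subgroupOf (K ⊔ H)).Normal := Subgroup.normal_subgroupOf
    refine Subgroup.isComplement'_of_disjoint_and_mul_eq_univ ?_ ?_
    · rw [Subgroup.disjoint_def]
      intro y hy hy'
      have h : (y : G) ∈ (⊥ : Subgroup G) := hbot ▸ (⟨hy', hy⟩ : (y : G) ∈ K ⊓ H)
      exact Subtype.ext (Subgroup.mem_bot.1 h)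
    · rw [← Subgroup.mul_normal, ← Subgroup.subgroupOf_sup le_sup_right le_sup_left, sup_comm H K,
        Subgroup.subgroupOf_self, Subgroup.coe_top]
  refine Subgroup.eq_top_of_le_card _ ?_
  rw [← hc.card_mul_card, Nat.card_congr (Subgroup.subgroupOfEquivOfLe le_sup_right).toEquiv,
    Nat.card_congr (Subgroup.subgroupOfEquivOfLe le_sup_left).toEquiv, ← K.index_mul_card]
  exact Nat.mul_le_mul_right _ (Nat.le_of_dvd Nat.card_pos hdvd)

end CfsgLib.BrauerSuzukiHall
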